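import Cfsg.Agent.H66.J46.JcBasic

/-!
# S2946-CROSSB (helper54, for helper52)
-/

set_option autoImplicit false

namespace Cfsg.Agent.H66.J46.H54.Jc

open Cfsg Cfsg.Agent.H29 Cfsg.Agent.H66.J46.H52.Jc Cfsg.Agent.H66.J46.H29

variable {G : Type*} [Group G] [Finite G] {X W S : Subgroup G} {u x : G}

theorem cross_of_mem (h : Cfg X W S u x) {m : G}
    (hmem : ∀ A ∈ nMax 2 S, ∀ a ∈ A, a * m * a⁻¹ = m ∨ a * m * a⁻¹ = m * u) {j : G}
    (hj : j ∈ nJ 2 S) : j * m * j⁻¹ = m ∨ j * m * j⁻¹ = m * u := by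
  have huu : u * u = 1 := h.hexp u h.hu
  let H : Subgroup G :=
    { carrier := {j | j ∈ S ∧ (j * m * j⁻¹ = m ∨ j * m * j⁻¹ = m * u)}
      one_mem' := ⟨S.one_mem, Or.inl (by group)⟩
      mul_mem' := by
        rintro a b ⟨ha, ha'⟩ ⟨hb, hb'⟩
        refine ⟨S.mul_mem ha hb, ?_⟩
        have hau := h.hSu ha
        have e1 : a * b * m * (a * b)⁻¹ = a * (b * m * b⁻¹) * a⁻¹ := by group
        have e2 : a * (m * u) * a⁻¹ = (a * m * a⁻¹) * (a * u * a⁻¹) := by group
        rw [e1]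
        rcases hb' with hb' | hb'
        · rw [hb']; exact ha'
        · rw [hb', e2, hau]
          rcases ha' with ha' | ha'
          · right; rw [ha']
          · left; rw [ha', mul_assoc, huu, mul_one]
      inv_mem' := by
        rintro a ⟨ha, ha'⟩
        refine ⟨S.inv_mem ha, ?_⟩
        have hau := h.hSu (S.inv_mem ha)
        rw [inv_inv] at hau ⊢
        have e2 : a⁻¹ * (a * m * a⁻¹) * a = m := by group
        rcases ha' with ha' | ha'
        · left
          rw [ha'] at e2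
          exact e2
        · right
          rw [ha'] at e2
          have e3 : a⁻¹ * (m * u) * a = (a⁻¹ * m * a) * (a⁻¹ * u * a) := by group
          rw [e3, hau] at e2
          calc a⁻¹ * m * a = (a⁻¹ * m * a) * u * u := by
                rw [mul_assoc (a⁻¹ * m * a) u u, huu, mul_one]
            _ = m * u := by rw [e2] }
  have hle : nJ 2 S ≤ H := by
    apply sSup_le
    intro A hA a ha
    exact ⟨hA.1.1 ha, hmem A hA a ha⟩
  exact (hle hj).2

example (h : Cfg X W S u x) {m : G}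
    (hmem : ∀ A ∈ nMax 2 S, ∀ a ∈ A, a * m * a⁻¹ = m ∨ a * m * a⁻¹ = m * u) {j : G}
    (hj : j ∈ nJ 2 S) : j * m * j⁻¹ = m ∨ j * m * j⁻¹ = m * u := cross_of_mem h hmem hj

end Cfsg.Agent.H66.J46.H54.Jc
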